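import Cfsg.Agent.H937.Gs.TwStartE
import Cfsg.Agent.H406.GS.Small
import Cfsg.Agent.H46.MSChev
import Cfsg.Agent.ChevalleyStructure.E6Fixed

/-!
# The long start of `²E₆(q)`, `q = 2, 3` (S4327), helper937

* `small_orb` : abstract, from a homomorphism `π : SL₃(F) → Y` extending the chart of a long simple root;
* `E6.small` : four conjugates reach `X (±α₀)`, `X (±α₁)`.
-/

set_option autoImplicit false
set_option linter.unusedSectionVars false

namespace Cfsg.Agent.H937.Gs.TwS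

open CoxeterSystem Cfsg.Agent.ChevalleyStructure.CoxeterGeom Cfsg.Agent.Tits.Roots Cfsg.Agent.Tits.Core
  Cfsg.Agent.Tits.Exchange Cfsg.Agent.Nodes.Reps Cfsg.Agent.Nodes.BNOf Cfsg.Agent.Nodes.StabComb
  Cfsg.Agent.Nodes.Bruhat Cfsg.Agent.Nodes.OppDec Cfsg.Agent.Nodes.Coroot
open Cfsg.Agent.KFacts.RgdAut Cfsg.Agent.KFacts.RgdDiag Cfsg.Agent.KFacts.RgdRigid
  Cfsg.Agent.KFacts.RgdField Cfsg.Agent.H441.GS Cfsg.Agent.H400.TwoExc
open Cfsg.Agent.Nodes.RGDFold Cfsg.Agent.Nodes.RGDFoldSL Cfsg.Agent.Nodes.RGDTwNode Cfsg.Agent.Nodes.RGDTwGen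
  Cfsg.Agent.Nodes.RGDChev
open Cfsg.Lie Cfsg.Agent.ChevalleyStructure
open Cfsg.Agent.H915.Gs (Reach)
open Cfsg.Agent.ChevalleyStructure.SL2Hom (up lo)
open scoped commutatorElement

universe u

/-- the fields with two or three elements have no automorphism -/
theorem aut_eq_one {K : Type*} [Field K] [Fintype K] (h : Fintype.card K = 2 ∨ Fintype.card K = 3) (τ : K ≃+* K) :
    τ = 1 := by
  ext t
  change τ t = t
  have h1 := FiniteField.pow_card t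
  have h2 : t = 0 ∨ t = 1 ∨ t = -1 := by
    rcases h with h | h
    · rw [h] at h1
      have h3 : t * (t - 1) = 0 := by linear_combination h1
      rcases mul_eq_zero.1 h3 with h4 | h4
      · exact Or.inl h4
      · exact Or.inr (Or.inl (sub_eq_zero.1 h4))
    · rw [h] at h1
      have h3 : t * ((t - 1) * (t + 1)) = 0 := by linear_combination h1
      rcases mul_eq_zero.1 h3 with h4 | h4
      · exact Or.inl h4
      rcases mul_eq_zero.1 h4 with h5 | h5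
      · exact Or.inr (Or.inl (sub_eq_zero.1 h5))
      · exact Or.inr (Or.inr (eq_neg_of_add_eq_zero_left h5))
  rcases h2 with rfl | rfl | rfl
  · rw [map_zero]
  · rw [map_one]
  · rw [map_neg, map_one]

section Rgd

variable {I W Y : Type*} [Fintype I] [DecidableEq I] [Group W] [Group Y] {M : CoxeterMatrix I}
  {cs : CoxeterSystem M W} {A : I → I → ℤ} {h : IsCartan M A} {p : ℕ} {T : Subgroup Y} {n : I → Y}
  {X : (I → ℤ) → Subgroup Y} {F : Type*} [Field F]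

variable (R : RGD cs h p T n X)

/-- a homomorphism of `SL₂` into a subgroup -/
theorem range_le {Φ : Matrix.SpecialLinearGroup (Fin 2) F →* Y} {J : Subgroup Y} (h1 : ∀ t, Φ (up t) ∈ J)
    (h2 : ∀ t, Φ (lo t) ∈ J) : Φ.range ≤ J := by
  rw [MonoidHom.range_eq_map, Subgroup.map_le_iff_le_comap]
  intro g _
  refine (Subgroup.closure_le _).2 ?_ (SL2Hom.mem_closure_SL2 g)
  rintro x (⟨t, rfl⟩ | ⟨t, rfl⟩)
  · exact h1 t
  · exact h2 t

include R

theorem X_le_range {i : I} {Φ : Matrix.SpecialLinearGroup (Fin 2) F →* Y} {χ : Y → F}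
    (Ci : Coord T (X (sr i)) (fun a => Φ (up a)) χ) (hw : Φ (wS 1) = n i) :
    X (sr i) ≤ Φ.range ∧ X (-sr i) ≤ Φ.range := by
  refine ⟨fun y hy => ?_, fun y hy => ?_⟩
  · obtain ⟨a, rfl⟩ := (Ci.mem y).1 hy
    exact ⟨_, rfl⟩
  · have h2 : (n i)⁻¹ * y * n i ∈ X (sr i) := by
      have h3 := R.conj i (sr i) (isRoot_sr cs h i)
      rw [rep_simple_sr] at h3
      rw [← h3, mem_cj] at hy
      exact hy
    obtain ⟨a, ha⟩ := (Ci.mem _).1 h2
    refine ⟨wS 1 * up a * (wS 1)⁻¹, ?_⟩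
    rw [map_mul, map_mul, map_inv, hw]
    have e : n i * ((n i)⁻¹ * y * n i) * (n i)⁻¹ = y := by group
    rw [← ha] at e
    exact e

/-- **The start for `q = 2, 3`.** -/
theorem small_orb [Finite W] [Nonempty I] [Fintype F] (hF : Fintype.card F = 2 ∨ Fintype.card F = 3)
    (hG : GG cs h T X = ⊤) {i : I} {Φ : Matrix.SpecialLinearGroup (Fin 2) F →* Y} {χ : Y → F}
    (Ci : Coord T (X (sr i)) (fun a => Φ (up a)) χ) (hw : Φ (wS 1) = n i) {r : I → ℤ} (hr : IsRoot cs h r)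
    (hdom : Dom A r) (hd : ∀ i, 0 ≤ cpr cs h (sr i) r)
    (hc : ∀ x, IsRoot cs h x → 0 ≤ cpr cs h x r → ∀ u ∈ X x, ∀ z ∈ X r, u * z = z * u)
    (ho : ∃ w, rep cs h w (sr i) = r) {π : Matrix.SpecialLinearGroup (Fin 3) F →* Y}
    (h01 : ∀ t, π (Matrix.SpecialLinearGroup.transvection (show (0 : Fin 3) ≠ 1 by decide) t) = Φ (up t))
    (h10 : ∀ t, π (Matrix.SpecialLinearGroup.transvection (show (1 : Fin 3) ≠ 0 by decide) t) = Φ (lo t))
    {v w : W} (hwv : rep cs h w (rep cs h v r) = -rep cs h v r) {α β : MulAut Y} {y₀ k b : Y}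
    (hk : Rp cs R.nsys w k) (hb : b ∈ RGD.B cs h T X) (D : Diag T X β 1)
    (e : MulAut.conj y₀ * α * (MulAut.conj y₀)⁻¹ = MulAut.conj (k * b) * β) {m : ℕ} (hm : α ^ m = 1) :
    ∃ y : Y, (∀ z, (MulAut.conj y * α * (MulAut.conj y)⁻¹) z ∈ X r ↔ z ∈ X (-r)) ∧
      Reach (MulAut.conj y * α * (MulAut.conj y)⁻¹) 4 π.range := by
  obtain ⟨ψ, χp, χm, C, hQ, g, hg⟩ := exists_chart' R Ci hw hr hdom hc ho
  obtain ⟨y, τ, c, hc0, -, h1, h2⟩ := semi_orb R hG hr hd hc C hQ hwv hk hb D e hm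
  obtain rfl : τ = 1 := aut_eq_one hF τ
  refine ⟨y, h1, ?_⟩
  obtain ⟨a, ha⟩ : ∃ a, a = MulAut.conj y * α * (MulAut.conj y)⁻¹ := ⟨_, rfl⟩
  rw [← ha] at h2 ⊢
  obtain ⟨b', hb'⟩ : ∃ b', b' = MulAut.conj g⁻¹ * a * (MulAut.conj g⁻¹)⁻¹ := ⟨_, rfl⟩
  have h3 : b' (Φ (up 1)) = Φ (lo c) := by
    have h4 := h2 1
    rw [hg, hg] at h4
    rw [hb', MulAut.mul_apply, MulAut.mul_apply, ← map_inv, MulAut.conj_apply, MulAut.conj_apply]
    simp only [inv_inv]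
    rw [h4]
    have h5 : c * (1 : F ≃+* F) 1 = c := by rw [map_one, mul_one]
    rw [h5]
    group
  obtain ⟨x, hx⟩ := Cfsg.Agent.H406.GS.sl3_small hF (neg_ne_zero.2 hc0)
  have h4 : π (Cfsg.Agent.H406.GS.wc (-c)) = Φ (up 1) * (b' (Φ (up 1)))⁻¹ := by
    unfold Cfsg.Agent.H406.GS.wc
    rw [map_mul, h01, h10, h3, ← map_inv]
    congr 2
    apply eq_inv_of_mul_eq_one_left
    apply Subtype.ext
    rw [Matrix.SpecialLinearGroup.coe_mul]
    show (!![1, 0; -c, 1] : Matrix (Fin 2) (Fin 2) F) * !![1, 0; c, 1] = 1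
    ext i j
    fin_cases i <;> fin_cases j <;> simp [Matrix.mul_apply, Fin.sum_univ_two]
  exact Cfsg.Agent.H406.GS.reach_back (hb' ▸ Cfsg.Agent.H406.GS.reach_of_hom π h4 hx)

end Rgd

/-! ### the charts of the long simple roots -/

section Node

variable {D : ChevalleyDatum} {l : ℕ} {M' : CoxeterMatrix (Fin l)} {hp : IsType D l M'} {K : Type u} [Field K] {m : ℕ}
  {J : Fin m → List (Fin l)} {L : List (List ℕ)} {σ : GL D.Idx K →* GL D.Idx K} {ρ ρ' : ℕ → ℕ}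
  {f : ℕ → K → K} {G : Subgroup (GL D.Idx K)} {i : Fin m} {r : ℕ} {φ : K →+* K}
  (FG : FoldGrp hp K J L σ ρ ρ' f G) (N : NodeOK D J L ρ i r []) (hf : ∀ s ∈ [r], ∀ t, f s t = φ t)

theorem coe_up (t : Fx φ (0 + 1)) : ((Phi FG N hf (up t) : ↥G) : GL D.Idx K) = Elts.xG hp.inList r (t : K) := by
  refine (coe_Phi_up FG N hf t).trans ?_
  exact mul_one _

theorem coe_lo (t : Fx φ (0 + 1)) :
    ((Phi FG N hf (lo t) : ↥G) : GL D.Idx K) = Elts.xG hp.inList (D.neg r) (t : K) := by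
  change Ph hp K N φ (Matrix.SpecialLinearGroup.map _ (lo t)) = _
  rw [map_lo]
  change psi hp.inList K r (lo (t : K)) * 1 = _
  rw [mul_one, psi_lo hp.inList (N.lt r List.mem_cons_self)]

end Node

theorem comm_mem {G : Type*} [Group G] {S : Subgroup G} {x y : G} (hx : x ∈ S) (hy : y ∈ S) : ⁅x, y⁆ ∈ S := by
  rw [commutatorElement_def]
  exact mul_mem (mul_mem (mul_mem hx hy) (inv_mem hx)) (inv_mem hy)

/-! ### `²E₆(q)` -/

namespace E6

open Cfsg.Agent.ChevalleyStructure.E6Fixed (hE6 x_mem)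

section

variable {K : Type u} [Field K] {q : ℕ}

theorem rx_mem {F : Type*} [Field F] (f : F →+* K) (hf : ∀ t, f t ^ q = f t) (i j : Fin 3) (hij : i ≠ j) (t : F) :
    H46.MS.rx hE6 f 39 46 47 i j t ∈ twistedE6 K q := by
  have h1 : ∀ i j : Fin 3, i ≠ j → H46.MS.rt chevE6 39 46 47 i j ∈ [46, 25, 39, 32] → ∀ t : F,
      H46.MS.rx hE6 f 39 46 47 i j t ∈ twistedE6 K q := fun i j _ h t => x_mem h (hf t)
  have hS := H46.MS.rx_stein hE6 f H46.MS.isA2_E6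
  by_cases h2 : i = 0 ∧ j = 2
  · obtain ⟨rfl, rfl⟩ := h2
    have h3 := hS.br 0 1 2 (by decide) (by decide) (by decide) t 1
    rw [mul_one] at h3
    rw [← h3]
    exact comm_mem (h1 0 1 (by decide) (by decide +kernel) t) (h1 1 2 (by decide) (by decide +kernel) 1)
  · by_cases h3 : i = 2 ∧ j = 0
    · obtain ⟨rfl, rfl⟩ := h3
      have h3 := hS.br 2 1 0 (by decide) (by decide) (by decide) t 1
      rw [mul_one] at h3
      rw [← h3]
      exact comm_mem (h1 2 1 (by decide) (by decide +kernel) t) (h1 1 0 (by decide) (by decide +kernel) 1)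
    · refine h1 i j hij ?_ t
      revert i j
      decide +kernel

/-- `SL₃(q) → ²E₆(q)` -/
theorem exists_pi {F : Type*} [Field F] (f : F →+* K) (hf : ∀ t, f t ^ q = f t) :
    ∃ π : Matrix.SpecialLinearGroup (Fin 3) F →* ↥(twistedE6 K q),
      ∀ (i j : Fin 3) (hij : i ≠ j) (t : F), ((π (Matrix.SpecialLinearGroup.transvection hij t) : ↥(twistedE6 K q)) :
        GL chevE6.Idx K) = H46.MS.rx hE6 f 39 46 47 i j t := by
  obtain ⟨π, h1, h2, -⟩ := CTFrame.Hom.exists_hom (H46.MS.rx_stein hE6 f H46.MS.isA2_E6)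
    (H46.MS.rx_h hE6 f H46.MS.isA2_E6) (by simp)
  have h3 : π.range ≤ twistedE6 K q := by
    rw [h2, Subgroup.closure_le]
    rintro _ ⟨i, j, hij, t, rfl⟩
    exact rx_mem f hf i j hij t
  exact ⟨π.codRestrict (twistedE6 K q) fun g => h3 ⟨g, rfl⟩, fun i j hij t => h1 i j hij t⟩

end

section

variable {K : Type u} [Field K] [Fintype K] {q : ℕ} {φ : K →+* K} (hφ : ∀ x, φ x = x ^ q)
  (hqq : ∀ t : K, (t ^ q) ^ q = t) {W : Type*} [Group W] [Finite W] (cs : CoxeterSystem CoxeterMatrix.F₄ W)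

theorem ho' : ∃ w, rep cs Nodes.RGDTwE6.isCartan w (sr 1) = (toV [2, 3, 4, 2] : Fin 4 → ℤ) :=
  ⟨cs.wordProd [0, 1, 2, 3, 1, 2, 0], by rw [rep_word]; decide +kernel⟩

include hφ hqq

/-- **The start of `²E₆(q)`, `q = 2, 3`.** -/
theorem small (p : ℕ) [Fact p.Prime] [CharP K p] (hK : Fintype.card K = q ^ 2) (hq : q = 2 ∨ q = 3) {v w : W}
    (hwv : rep cs Nodes.RGDTwE6.isCartan w (rep cs Nodes.RGDTwE6.isCartan v (toV [2, 3, 4, 2])) =
      -rep cs Nodes.RGDTwE6.isCartan v (toV [2, 3, 4, 2])) {α β : MulAut ↥(twistedE6 K q)}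
    {y₀ k b : ↥(twistedE6 K q)} (hk : Rp cs (Nodes.RGDTwE6.rgd cs hφ hqq p).nsys w k)
    (hb : b ∈ RGD.B cs Nodes.RGDTwE6.isCartan (Nodes.RGDTwE6.T K q) (Nodes.RGDTwE6.X φ q))
    (D : Diag (Nodes.RGDTwE6.T K q) (Nodes.RGDTwE6.X φ q) β 1)
    (e : MulAut.conj y₀ * α * (MulAut.conj y₀)⁻¹ = MulAut.conj (k * b) * β) {m : ℕ} (hm : α ^ m = 1) :
    ∃ y : ↥(twistedE6 K q), (∀ z, (MulAut.conj y * α * (MulAut.conj y)⁻¹) z ∈
        Nodes.RGDTwE6.X φ q (toV [2, 3, 4, 2]) ↔ z ∈ Nodes.RGDTwE6.X φ q (-toV [2, 3, 4, 2])) ∧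
      ∃ J, Reach (MulAut.conj y * α * (MulAut.conj y)⁻¹) 4 J ∧ Nodes.RGDTwE6.X φ q (sr 0) ≤ J ∧
        Nodes.RGDTwE6.X φ q (-sr 0) ≤ J ∧ Nodes.RGDTwE6.X φ q (sr 1) ≤ J ∧ Nodes.RGDTwE6.X φ q (-sr 1) ≤ J := by
  have hq1 : 1 < q := by omega
  have G := TwE.gi (cs := cs) hφ hqq p hK hq1
  have R := Nodes.RGDTwE6.rgd cs hφ hqq p
  have FG := Nodes.RGDTwE6.foldGrp hφ hqq
  have N0 : NodeOK chevE6 Nodes.RGDTwE6.J TwistedE6U.L TwistedE6Sigma.rho 0 46 [] := Nodes.RGDTwNode.E6.nodeOK 0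
  have N1 : NodeOK chevE6 Nodes.RGDTwE6.J TwistedE6U.L TwistedE6Sigma.rho 1 39 [] := Nodes.RGDTwNode.E6.nodeOK 1
  have hf0 : ∀ s ∈ [46], ∀ t : K, ((TwistedE6Sigma.eps s : ℤ) : K) * φ t = φ t := by
    intro s hs t
    rw [Nodes.RGDTwNode.E6.eps_one 0 s hs, Int.cast_one, one_mul]
  have hf1 : ∀ s ∈ [39], ∀ t : K, ((TwistedE6Sigma.eps s : ℤ) : K) * φ t = φ t := by
    intro s hs t
    rw [Nodes.RGDTwNode.E6.eps_one 1 s hs, Int.cast_one, one_mul]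
  have C0 := Cfsg.Agent.KFacts.TwESix.NodeCoord.coord FG N0 hf0
  have C1 := Cfsg.Agent.KFacts.TwESix.NodeCoord.coord FG N1 hf1
  have : Fintype (Fx φ (0 + 1)) := Fintype.ofFinite _
  have hc : Fintype.card (Fx φ (0 + 1)) = q := by
    rw [← Nat.card_eq_fintype_card]
    exact card_Fx (by omega) hφ hK
  obtain ⟨π, hπ⟩ := exists_pi (q := q) (Fx φ (0 + 1)).subtype fun t => by
    rw [← hφ]
    exact mem_Fx.1 t.2
  have h01 : ∀ t, π (Matrix.SpecialLinearGroup.transvection (show (0 : Fin 3) ≠ 1 by decide) t) =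
      Phi FG N1 hf1 (up t) := fun t => Subtype.ext ((hπ _ _ _ _).trans (coe_up FG N1 hf1 t).symm)
  have h10 : ∀ t, π (Matrix.SpecialLinearGroup.transvection (show (1 : Fin 3) ≠ 0 by decide) t) =
      Phi FG N1 hf1 (lo t) := fun t => Subtype.ext ((hπ _ _ _ _).trans (coe_lo FG N1 hf1 t).symm)
  have h12 : ∀ t, π (Matrix.SpecialLinearGroup.transvection (show (1 : Fin 3) ≠ 2 by decide) t) =
      Phi FG N0 hf0 (up t) := fun t => Subtype.ext ((hπ _ _ _ _).trans (coe_up FG N0 hf0 t).symm)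
  have h21 : ∀ t, π (Matrix.SpecialLinearGroup.transvection (show (2 : Fin 3) ≠ 1 by decide) t) =
      Phi FG N0 hf0 (lo t) := fun t => Subtype.ext ((hπ _ _ _ _).trans (coe_lo FG N0 hf0 t).symm)
  have hcc : Fintype.card (Fx φ (0 + 1)) = 2 ∨ Fintype.card (Fx φ (0 + 1)) = 3 := by
    rw [hc]
    exact hq
  obtain ⟨y, h1, h2⟩ := small_orb R hcc (GG_eq_top (Nodes.RGDTwE6.G1_eq_top cs hφ hqq)) C1
    (Phi_wS FG N1 hf1) G.rr G.dom G.hdr G.lr.comm (ho' cs) h01 h10 hwv hk hb D e hm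
  have hr0 := range_le (Φ := Phi FG N0 hf0) (J := π.range) (fun t => ⟨_, h12 t⟩) fun t => ⟨_, h21 t⟩
  have hr1 := range_le (Φ := Phi FG N1 hf1) (J := π.range) (fun t => ⟨_, h01 t⟩) fun t => ⟨_, h10 t⟩
  obtain ⟨e1, e2⟩ := X_le_range R C0 (Phi_wS FG N0 hf0)
  obtain ⟨e3, e4⟩ := X_le_range R C1 (Phi_wS FG N1 hf1)
  exact ⟨y, h1, π.range, h2, e1.trans hr0, e2.trans hr0, e3.trans hr1, e4.trans hr1⟩

end

end E6

end Cfsg.Agent.H937.Gs.TwS
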